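import Cfsg.Agent.H583.HT.Rho

/-!
# S3577, S3540 (HT-E, P4a; helper755): involutions in the case `e = 2`

`count_two_lin`, `count_two_semi`, `card_two`.
-/

set_option autoImplicit false
set_option linter.unusedSectionVars false
set_option linter.unusedVariables false

open scoped commutatorElement
open Finset

namespace Cfsg.Agent.H755.HT

open Cfsg.Agent.H828.HT Cfsg.Agent.H662.HT Cfsg.Agent.H583.HT

universe u

/-- The automorphism group of a finite field is cyclic. -/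
theorem isCyclic_ringEquiv (F : Type*) [Field F] [Finite F] : IsCyclic (F ≃+* F) := by
  obtain ⟨p, hp⟩ := CharP.exists F
  have hpp : Fact p.Prime := ⟨CharP.char_is_prime F p⟩
  let _ : Algebra (ZMod p) F := ZMod.algebra F p
  let φ : (F ≃ₐ[ZMod p] F) →* (F ≃+* F) :=
    { toFun := fun σ => σ.toRingEquiv
      map_one' := rfl
      map_mul' := fun _ _ => rfl }
  have hφ : Function.Surjective φ := by
    intro σ
    refine ⟨AlgEquiv.ofRingEquiv (f := σ) ?_, ?_⟩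
    · intro x
      have : (σ : F →+* F).comp (algebraMap (ZMod p) F) = algebraMap (ZMod p) F :=
        Subsingleton.elim _ _
      exact RingHom.congr_fun this x
    · ext x
      rfl
  exact isCyclic_of_surjective φ hφ

/-- Two automorphisms of order two of a finite field are equal. -/
theorem involution_unique {F : Type*} [Field F] [Finite F] {σ τ : F ≃+* F} (hσ : σ * σ = 1) (hτ : τ * τ = 1)
    (hσ1 : σ ≠ 1) (hτ1 : τ ≠ 1) : σ = τ := by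
  classical
  have hcyc : IsCyclic (F ≃+* F) := isCyclic_ringEquiv F
  have hfin : Finite (F ≃+* F) := DFunLike.finite _
  let _ : Fintype (F ≃+* F) := Fintype.ofFinite _
  by_contra hne
  have h1 : (Finset.univ.filter fun a : F ≃+* F => a ^ 2 = 1).card ≤ 2 :=
    IsCyclic.card_pow_eq_one_le two_pos
  have h2 : ({1, σ, τ} : Finset (F ≃+* F)) ⊆ Finset.univ.filter fun a : F ≃+* F => a ^ 2 = 1 := by
    intro a ha
    rw [Finset.mem_filter]
    refine ⟨Finset.mem_univ _, ?_⟩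
    simp only [Finset.mem_insert, Finset.mem_singleton] at ha
    rcases ha with rfl | rfl | rfl
    · exact one_pow 2
    · rw [sq, hσ]
    · rw [sq, hτ]
  have h3 := Finset.card_le_card h2
  rw [Finset.card_insert_of_notMem, Finset.card_insert_of_notMem, Finset.card_singleton] at h3
  · omega
  · rw [Finset.mem_singleton]
    exact hne
  · simp only [Finset.mem_insert, Finset.mem_singleton, not_or]
    exact ⟨hσ1.symm, hτ1.symm⟩

variable {p : ℕ} [Fact p.Prime] {V : Type u} [AddCommGroup V] [Module (ZMod p) V] [Finite V]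
  {G A F : Subgroup (V ≃ₗ[ZMod p] V)} {ρ : G →* Equiv.Perm (Fin 3)} {n : Fin 3 → (V ≃ₗ[ZMod p] V)}
  {K : Type u} [Field K] [Module K V] {χ : A →* Kˣ} {σ : G →* (K ≃+* K)}

theorem quo_eq (y y' : G) : (QuotientGroup.mk y : G ⧸ A.subgroupOf G) = QuotientGroup.mk y' ↔
    (y : V ≃ₗ[ZMod p] V)⁻¹ * (y' : V ≃ₗ[ZMod p] V) ∈ A :=
  QuotientGroup.eq (s := A.subgroupOf G) (a := y) (b := y')

/-- counting by cosets of `A` -/
theorem card_le_cosets {S : G → Prop} (t : Finset (G ⧸ A.subgroupOf G))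
    (ht : ∀ y, S y → (QuotientGroup.mk y : G ⧸ A.subgroupOf G) ∈ t) (B : ℕ)
    (hB : ∀ y₁, S y₁ → Nat.card {y // S y ∧ (y₁ : V ≃ₗ[ZMod p] V)⁻¹ * (y : V ≃ₗ[ZMod p] V) ∈ A} ≤ B) :
    Nat.card {y // S y} ≤ B * t.card := by
  classical
  have := finite_gl (p := p) (V := V)
  refine card_le_mul_of (S := S) (fun y => (QuotientGroup.mk y : G ⧸ A.subgroupOf G)) t ht B fun b _ => ?_
  by_cases hne : ∃ y₁, S y₁ ∧ (QuotientGroup.mk y₁ : G ⧸ A.subgroupOf G) = b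
  · obtain ⟨y₁, h3, h4⟩ := hne
    refine le_trans (Nat.card_le_card_of_injective
      (fun y : {y // S y ∧ (QuotientGroup.mk y : G ⧸ A.subgroupOf G) = b} =>
        (⟨y.1, y.2.1, (quo_eq _ _).1 (h4.trans y.2.2.symm)⟩ :
        {y // S y ∧ (y₁ : V ≃ₗ[ZMod p] V)⁻¹ * (y : V ≃ₗ[ZMod p] V) ∈ A})) ?_) (hB y₁ h3)
    intro a b h
    have h5 : a.1 = b.1 := congrArg (fun z : {y // S y ∧ (y₁ : V ≃ₗ[ZMod p] V)⁻¹ * (y : V ≃ₗ[ZMod p] V) ∈ A} => z.1) h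
    exact Subtype.ext h5
  · have : IsEmpty {y // S y ∧ (QuotientGroup.mk y : G ⧸ A.subgroupOf G) = b} := ⟨fun y => hne ⟨y.1, y.2⟩⟩
    rw [Nat.card_of_isEmpty]
    exact Nat.zero_le _

theorem perm_fix : ∀ τ : Equiv.Perm (Fin 3), τ ≠ 1 → ∃ i₀, ∀ i, τ i = i → i = i₀ := by decide

/-- the coset of `n` is fixed -/
theorem fixed_of_invol (R : Rho G A F ρ n) (E : ETwo G A F) {y₀ y : G} (h0 : y₀ * y₀ = 1) (hy : y * y = 1) {i : Fin 3}
    (h : (n i)⁻¹ * ((y₀ : V ≃ₗ[ZMod p] V)⁻¹ * (y : V ≃ₗ[ZMod p] V)) ∈ A) : ρ y₀ i = i := by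
  rw [R.act]
  obtain ⟨a, ha⟩ : ∃ a, a = (n i)⁻¹ * ((y₀ : V ≃ₗ[ZMod p] V)⁻¹ * (y : V ≃ₗ[ZMod p] V)) := ⟨_, rfl⟩
  rw [← ha] at h
  have h0' : (y₀ : V ≃ₗ[ZMod p] V) * y₀ = 1 := congrArg Subtype.val h0
  have hy' : (y : V ≃ₗ[ZMod p] V) * y = 1 := congrArg Subtype.val hy
  have hinv : (y₀ : V ≃ₗ[ZMod p] V)⁻¹ = y₀ := inv_eq_of_mul_eq_one_left h0'
  have e1 : (y : V ≃ₗ[ZMod p] V) = y₀ * n i * a := by rw [ha]; group
  have e2 : (y₀ : V ≃ₗ[ZMod p] V) * n i * a * (y₀ * n i * a) = 1 := by rw [← e1]; exact hy'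
  have e3 : (y₀ : V ≃ₗ[ZMod p] V) * n i * (y₀ : V ≃ₗ[ZMod p] V)⁻¹ =
      a⁻¹ * (n i)⁻¹ * ((y₀ : V ≃ₗ[ZMod p] V) * a * (y₀ : V ≃ₗ[ZMod p] V)⁻¹)⁻¹ := by
    rw [hinv]
    have e4 : (y₀ : V ≃ₗ[ZMod p] V) * n i * y₀ * (y₀ * a * y₀) * (n i * a) = 1 := by
      calc (y₀ : V ≃ₗ[ZMod p] V) * n i * y₀ * (y₀ * a * y₀) * (n i * a) =
          y₀ * n i * (y₀ * y₀) * a * (y₀ * n i * a) := by group
        _ = y₀ * n i * a * (y₀ * n i * a) := by rw [h0', mul_one]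
        _ = 1 := e2
    have e5 : (y₀ : V ≃ₗ[ZMod p] V) * n i * y₀ = (n i * a)⁻¹ * (y₀ * a * y₀)⁻¹ := by
      rw [← mul_inv_rev]
      have e6 : (y₀ : V ≃ₗ[ZMod p] V) * n i * y₀ * ((y₀ * a * y₀) * (n i * a)) = 1 := by
        rw [← e4]; group
      exact eq_inv_of_mul_eq_one_left e6
    rw [e5, mul_inv_rev]
  rw [e3]
  have h7 : (n i)⁻¹ * (a⁻¹ * (n i)⁻¹ * ((y₀ : V ≃ₗ[ZMod p] V) * a * (y₀ : V ≃ₗ[ZMod p] V)⁻¹)⁻¹) =
      ((n i)⁻¹ * a⁻¹ * (n i)⁻¹⁻¹) * (n i * n i)⁻¹ * ((y₀ : V ≃ₗ[ZMod p] V) * a * (y₀ : V ≃ₗ[ZMod p] V)⁻¹)⁻¹ := by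
    group
  rw [h7]
  exact mul_mem (mul_mem (E.nA _ (inv_mem (E.FG (R.memF i))) _ (inv_mem h)) (inv_mem (E.sq _ (R.memF i))))
    (inv_mem (E.nA _ y₀.2 _ h))

/-- involutions over one transposition: two cosets of `A` -/
theorem card_le_two (R : Rho G A F ρ n) (E : ETwo G A F) (hK : KS G A K χ σ) {S : G → Prop}
    {τ : Equiv.Perm (Fin 3)} (hτ : τ ≠ 1) (h1 : ∀ y, S y → y * y = 1) (h2 : ∀ y, S y → ρ y = τ)
    (h3 : ∀ y y', S y → S y' → σ y = σ y') (B : ℕ)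
    (hB : ∀ y₁, S y₁ → Nat.card {y // S y ∧ (y₁ : V ≃ₗ[ZMod p] V)⁻¹ * (y : V ≃ₗ[ZMod p] V) ∈ A} ≤ B) :
    Nat.card {y // S y} ≤ B * 2 := by
  classical
  have := finite_gl (p := p) (V := V)
  obtain ⟨i₀, hi₀⟩ := perm_fix τ hτ
  by_cases hne : ∃ y₀, S y₀
  · obtain ⟨y₀, hy₀⟩ := hne
    let m : G := ⟨n i₀, E.FG (R.memF i₀)⟩
    let t : Finset (G ⧸ A.subgroupOf G) := {QuotientGroup.mk y₀, QuotientGroup.mk (y₀ * m)}
    refine (card_le_cosets t (fun y hy => ?_) B hB).trans (Nat.mul_le_mul_left B Finset.card_le_two)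
    have hF := R.inv_mul_mem E hK ((h2 y₀ hy₀).trans (h2 y hy).symm) (h3 y₀ y hy₀ hy)
    rcases R.cov _ hF with h | ⟨i, h⟩
    · have e : (QuotientGroup.mk y₀ : G ⧸ A.subgroupOf G) = QuotientGroup.mk y := (quo_eq _ _).2 h
      rw [← e]
      exact Finset.mem_insert_self _ _
    · have hi : i = i₀ := hi₀ i (by rw [← h2 y₀ hy₀]; exact fixed_of_invol R E (h1 y₀ hy₀) (h1 y hy) h)
      subst hi
      have e : (QuotientGroup.mk (y₀ * m) : G ⧸ A.subgroupOf G) = QuotientGroup.mk y := by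
        rw [quo_eq]
        have h4 : ((y₀ * m : G) : V ≃ₗ[ZMod p] V)⁻¹ * (y : V ≃ₗ[ZMod p] V) =
            (n i)⁻¹ * ((y₀ : V ≃ₗ[ZMod p] V)⁻¹ * (y : V ≃ₗ[ZMod p] V)) := by
          rw [Subgroup.coe_mul, mul_inv_rev, mul_assoc]
        rw [h4]
        exact h
      rw [← e]
      exact Finset.mem_insert_of_mem (Finset.mem_singleton_self _)
  · have : IsEmpty {y // S y} := ⟨fun y => hne ⟨y.1, y.2⟩⟩
    rw [Nat.card_of_isEmpty]
    exact Nat.zero_le _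

theorem perm_card : (Finset.univ.filter fun τ : Equiv.Perm (Fin 3) => τ ≠ 1 ∧ τ * τ = 1).card = 3 := by decide

theorem card_split {α : Type*} [Finite α] (S P : α → Prop) :
    Nat.card {y // S y} ≤ Nat.card {y // S y ∧ P y} + Nat.card {y // S y ∧ ¬ P y} := by
  classical
  have := Fintype.ofFinite α
  rw [Nat.card_eq_fintype_card, Nat.card_eq_fintype_card, Nat.card_eq_fintype_card, Fintype.card_subtype,
    Fintype.card_subtype, Fintype.card_subtype]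
  refine le_trans (Finset.card_le_card ?_) (Finset.card_union_le _ _)
  intro y hy
  rw [Finset.mem_filter] at hy
  rw [Finset.mem_union, Finset.mem_filter, Finset.mem_filter]
  by_cases h : P y
  · exact Or.inl ⟨Finset.mem_univ _, hy.2, h⟩
  · exact Or.inr ⟨Finset.mem_univ _, hy.2, h⟩

/-- the total -/
theorem card_total (R : Rho G A F ρ n) (E : ETwo G A F) (hK : KS G A K χ σ) {S : G → Prop}
    (h1 : ∀ y, S y → y * y = 1) (h3 : ∀ y y', S y → S y' → σ y = σ y') (B C : ℕ)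
    (hB : ∀ y₁, S y₁ → Nat.card {y // S y ∧ (y₁ : V ≃ₗ[ZMod p] V)⁻¹ * (y : V ≃ₗ[ZMod p] V) ∈ A} ≤ B)
    (hC : Nat.card {y // S y ∧ ρ y = 1} ≤ B * C) : Nat.card {y // S y} ≤ B * (C + 6) := by
  classical
  have hfin := finite_gl (p := p) (V := V)
  have h4 := card_split S (fun y => ρ y = 1)
  have h5 : Nat.card {y // S y ∧ ¬ ρ y = 1} ≤ B * 2 *
      (Finset.univ.filter fun τ : Equiv.Perm (Fin 3) => τ ≠ 1 ∧ τ * τ = 1).card := by
    refine card_le_mul_of (S := fun y => S y ∧ ¬ ρ y = 1) (fun y => ρ y) _ (fun y hy => ?_) _ (fun τ hτ => ?_)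
    · rw [Finset.mem_filter]
      exact ⟨Finset.mem_univ _, hy.2, by rw [← map_mul, h1 y hy.1, map_one]⟩
    · rw [Finset.mem_filter] at hτ
      refine card_le_two R E hK (S := fun y => (S y ∧ ¬ ρ y = 1) ∧ ρ y = τ) hτ.2.1 (fun y hy => h1 y hy.1.1)
        (fun y hy => hy.2) (fun y y' hy hy' => h3 y y' hy.1.1 hy'.1.1) B fun y₁ hy₁ => ?_
      refine le_trans (Nat.card_le_card_of_injective
        (fun y : {y // ((S y ∧ ¬ ρ y = 1) ∧ ρ y = τ) ∧ (y₁ : V ≃ₗ[ZMod p] V)⁻¹ * (y : V ≃ₗ[ZMod p] V) ∈ A} =>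
          (⟨y.1, y.2.1.1.1, y.2.2⟩ : {y // S y ∧ (y₁ : V ≃ₗ[ZMod p] V)⁻¹ * (y : V ≃ₗ[ZMod p] V) ∈ A})) ?_)
        (hB y₁ hy₁.1.1)
      intro a b h
      exact Subtype.ext (congrArg
        (fun z : {y // S y ∧ (y₁ : V ≃ₗ[ZMod p] V)⁻¹ * (y : V ≃ₗ[ZMod p] V) ∈ A} => z.1) h)
  rw [perm_card] at h5
  calc Nat.card {y // S y} ≤ B * C + B * 2 * 3 := h4.trans (add_le_add hC h5)
    _ = B * (C + 6) := by ring

/-- restricting the hypothesis on the cosets -/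
theorem card_sub {S S' : G → Prop} (hS : ∀ y, S y → S' y) (y₁ : G) :
    Nat.card {y // S y ∧ (y₁ : V ≃ₗ[ZMod p] V)⁻¹ * (y : V ≃ₗ[ZMod p] V) ∈ A} ≤
      Nat.card {y // S' y ∧ (y₁ : V ≃ₗ[ZMod p] V)⁻¹ * (y : V ≃ₗ[ZMod p] V) ∈ A} := by
  have := finite_gl (p := p) (V := V)
  refine Nat.card_le_card_of_injective
    (fun y : {y // S y ∧ (y₁ : V ≃ₗ[ZMod p] V)⁻¹ * (y : V ≃ₗ[ZMod p] V) ∈ A} =>
      (⟨y.1, hS _ y.2.1, y.2.2⟩ : {y // S' y ∧ (y₁ : V ≃ₗ[ZMod p] V)⁻¹ * (y : V ≃ₗ[ZMod p] V) ∈ A})) ?_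
  intro a b h
  exact Subtype.ext (congrArg
    (fun z : {y // S' y ∧ (y₁ : V ≃ₗ[ZMod p] V)⁻¹ * (y : V ≃ₗ[ZMod p] V) ∈ A} => z.1) h)

/-- `-1` has no fixed vectors -/
theorem ng_fix (hp : 5 ≤ p) {v : V} (h : ng p V v = v) : v = 0 := by
  rw [ng_apply] at h
  have h1 : (2 : ZMod p) • v = 0 := by
    rw [two_smul]
    nth_rewrite 1 [← h]
    exact neg_add_cancel v
  have h2 : (2 : ZMod p) ≠ 0 := by
    have h3 : ((2 : ℕ) : ZMod p) ≠ 0 := by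
      rw [Ne, ZMod.natCast_eq_zero_iff]
      intro h4
      have := Nat.le_of_dvd (by norm_num) h4
      omega
    exact_mod_cast h3
  exact (smul_eq_zero.1 h1).resolve_left h2

/-- involutions of `A` -/
theorem not_mem_A (E : ETwo G A F) {y : G} (hy : y ≠ 1)
    (hfix : ∃ v : V, v ≠ 0 ∧ (y : V ≃ₗ[ZMod p] V) v = v) : (y : V ≃ₗ[ZMod p] V) ∉ A := by
  intro h
  obtain ⟨v, hv, hyv⟩ := hfix
  exact hv (E.semi _ h (fun h1 => hy (Subtype.ext h1)) v hyv)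

/-- **P4a** -/
theorem count_two_lin [Nontrivial V] (E : ETwo G A F) (hK : KS G A K χ σ) (hp : 5 ≤ p) (hcop : ¬ p ∣ Nat.card G) :
    Nat.card {y : G // y ≠ 1 ∧ y * y = 1 ∧ (∃ v : V, v ≠ 0 ∧ (y : V ≃ₗ[ZMod p] V) v = v) ∧ σ y = 1} ≤ 18 := by
  classical
  have hfin := finite_gl (p := p) (V := V)
  obtain ⟨ρ, n, R⟩ := exists_rho E
  have hB : ∀ y₁ : G, (y₁ ≠ 1 ∧ y₁ * y₁ = 1 ∧ (∃ v : V, v ≠ 0 ∧ (y₁ : V ≃ₗ[ZMod p] V) v = v) ∧ σ y₁ = 1) →
      Nat.card {y : G // (y ≠ 1 ∧ y * y = 1 ∧ (∃ v : V, v ≠ 0 ∧ (y : V ≃ₗ[ZMod p] V) v = v) ∧ σ y = 1) ∧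
        (y₁ : V ≃ₗ[ZMod p] V)⁻¹ * (y : V ≃ₗ[ZMod p] V) ∈ A} ≤ 2 := fun y₁ hy₁ =>
    (card_sub (S' := fun y => y ^ 2 = 1) (fun y hy => by rw [sq]; exact hy.2.1) y₁).trans
      (coset_lin E hK two_pos (by rw [sq]; exact hy₁.2.1) hy₁.2.2.2)
  refine (card_total R E hK (S := fun y => y ≠ 1 ∧ y * y = 1 ∧ (∃ v : V, v ≠ 0 ∧ (y : V ≃ₗ[ZMod p] V) v = v) ∧
    σ y = 1) (fun y hy => hy.2.1) (fun y y' hy hy' => hy.2.2.2.trans hy'.2.2.2.symm) 2 3 hB ?_)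
  let t : Finset (G ⧸ A.subgroupOf G) :=
    Finset.univ.image (fun i : Fin 3 => (QuotientGroup.mk (⟨n i, E.FG (R.memF i)⟩ : G) : G ⧸ A.subgroupOf G))
  have ht : t.card ≤ 3 := Finset.card_image_le.trans (by rw [Finset.card_univ, Fintype.card_fin])
  refine (card_le_cosets t (fun y hy => ?_) 2 fun y₁ hy₁ => ?_).trans (Nat.mul_le_mul_left 2 ht)
  · have hyF : (y : V ≃ₗ[ZMod p] V) ∈ F := R.mem_of_eq E hK hy.2 hy.1.2.2.2
    rcases R.cov _ hyF with h | ⟨i, h⟩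
    · exact absurd h (not_mem_A E hy.1.1 hy.1.2.2.1)
    · exact Finset.mem_image.2 ⟨i, Finset.mem_univ _, (quo_eq _ _).2 h⟩
  · exact (card_sub (S' := fun y => y ^ 2 = 1) (fun y hy => by rw [sq]; exact hy.1.2.1) y₁).trans
      (coset_lin E hK two_pos (by rw [sq]; exact hy₁.1.2.1) hy₁.1.2.2.2)

/-- **P4a** -/
theorem count_two_semi [Nontrivial V] (E : ETwo G A F) (hK : KS G A K χ σ) (hp : 5 ≤ p) (hcop : ¬ p ∣ Nat.card G)
    {q₀ : ℕ} (hq : Nat.card K = q₀ ^ 2) :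
    Nat.card {y : G // y * y = 1 ∧ σ y ≠ 1} ≤ 10 * (q₀ + 1) := by
  classical
  have hfin := finite_gl (p := p) (V := V)
  have := hK.fin
  obtain ⟨ρ, n, R⟩ := exists_rho E
  have hcs : ∀ y₁ : G, y₁ * y₁ = 1 → σ y₁ ≠ 1 →
      Nat.card {y : G // y ^ 2 = 1 ∧ (y₁ : V ≃ₗ[ZMod p] V)⁻¹ * (y : V ≃ₗ[ZMod p] V) ∈ A} ≤ q₀ + 1 := by
    intro y₁ h1 h2
    obtain ⟨q₁, hq1, hq2, hq3⟩ := coset_semi E hK Nat.prime_two (y₁ := y₁) (by rw [sq]; exact h1) h2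
    have h3 : q₁ = q₀ := by
      rw [hq] at hq2
      exact (Nat.pow_left_injective two_ne_zero hq2).symm
    subst h3
    have h4 : q₁ ^ 2 - 1 = (q₁ - 1) * (q₁ + 1) := by
      obtain ⟨m, rfl⟩ : ∃ m, q₁ = m + 1 := ⟨q₁ - 1, by omega⟩
      rw [Nat.add_sub_cancel]
      have : (m + 1) ^ 2 = m * (m + 1 + 1) + 1 := by ring
      omega
    rw [h4] at hq3
    exact Nat.le_of_mul_le_mul_left hq3 (by omega)
  have hσ : ∀ y y' : G, (y * y = 1 ∧ σ y ≠ 1) → (y' * y' = 1 ∧ σ y' ≠ 1) → σ y = σ y' := fun y y' hy hy' =>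
    involution_unique (by rw [← map_mul, hy.1, map_one]) (by rw [← map_mul, hy'.1, map_one]) hy.2 hy'.2
  have hmain := card_total R E hK (S := fun y => y * y = 1 ∧ σ y ≠ 1) (fun y hy => hy.1) hσ (q₀ + 1) 4
    (fun y₁ hy₁ => (card_sub (S' := fun y => y ^ 2 = 1) (fun y hy => by rw [sq]; exact hy.1) y₁).trans
      (hcs y₁ hy₁.1 hy₁.2)) ?_
  · calc Nat.card {y : G // y * y = 1 ∧ σ y ≠ 1} ≤ (q₀ + 1) * (4 + 6) := hmain
      _ = 10 * (q₀ + 1) := by ring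
  · by_cases hne : ∃ y₀ : G, (y₀ * y₀ = 1 ∧ σ y₀ ≠ 1) ∧ ρ y₀ = 1
    · obtain ⟨y₀, hy₀⟩ := hne
      refine R.card_le_four E y₀ (S := fun y => (y * y = 1 ∧ σ y ≠ 1) ∧ ρ y = 1)
        (fun y hy => R.inv_mul_mem E hK (hy₀.2.trans hy.2.symm) (hσ _ _ hy₀.1 hy.1)) (q₀ + 1) fun y₁ hy₁ => ?_
      exact (card_sub (S' := fun y => y ^ 2 = 1) (fun y hy => by rw [sq]; exact hy.1.1) y₁).trans
        (hcs y₁ hy₁.1.1 hy₁.1.2)
    · have : IsEmpty {y : G // (y * y = 1 ∧ σ y ≠ 1) ∧ ρ y = 1} := ⟨fun y => hne ⟨y.1, y.2⟩⟩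
      rw [Nat.card_of_isEmpty]
      exact Nat.zero_le _

/-- two translates of the fixed space meeting in `0` -/
theorem card_sq_le {y g : V ≃ₗ[ZMod p] V} (h : ∀ v : V, y v = v → (g * y * g⁻¹) v = v → v = 0) :
    Nat.card (fx y) ^ 2 ≤ Nat.card V := by
  classical
  rw [sq, ← Nat.card_prod]
  refine Nat.card_le_card_of_injective (fun w : fx y × fx y => (w.1 : V) + g w.2) ?_
  rintro ⟨a, b⟩ ⟨a', b'⟩ hab
  have h1 : (a : V) + g b = a' + g b' := hab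
  have ha : y (a - a' : V) = a - a' := by
    rw [map_sub, mem_fx.1 a.2, mem_fx.1 a'.2]
  have hb : (g * y * g⁻¹) (a - a' : V) = a - a' := by
    have h2 : (a : V) - a' = g ((b' : V) - b) := by
      rw [map_sub, sub_eq_sub_iff_add_eq_add, h1, add_comm]
    rw [h2]
    have h3 : g⁻¹ (g ((b' : V) - b)) = (b' : V) - b := by
      rw [← LinearEquiv.mul_apply, inv_mul_cancel]
      rfl
    rw [LinearEquiv.mul_apply, LinearEquiv.mul_apply, h3, map_sub y, mem_fx.1 b.2, mem_fx.1 b'.2]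
  have h4 := h _ ha hb
  have h5 : a = a' := Subtype.ext (sub_eq_zero.1 h4)
  subst h5
  have h6 : g b = g b' := add_left_cancel h1
  rw [Subtype.ext (g.injective h6)]

/-- **P4a** -/
theorem card_two [Nontrivial V] (E : ETwo G A F) (hK : KS G A K χ σ) (hp : 5 ≤ p) (hcop : ¬ p ∣ Nat.card G)
    {y : G} (hy : y ≠ 1) (hy2 : y * y = 1) (hfix : ∃ v : V, v ≠ 0 ∧ (y : V ≃ₗ[ZMod p] V) v = v) :
    Nat.card (fx (y : V ≃ₗ[ZMod p] V)) ^ 2 ≤ Nat.card V := by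
  classical
  have hfin := finite_gl (p := p) (V := V)
  have := hK.fin
  have hy2' : (y : V ≃ₗ[ZMod p] V) * y = 1 := congrArg Subtype.val hy2
  by_cases hσ : σ y = 1
  · obtain ⟨ρ, n, R⟩ := exists_rho E
    by_cases hρ : ρ y = 1
    · -- `y ∈ F`
      have hyF : (y : V ≃ₗ[ZMod p] V) ∈ F := R.mem_of_eq E hK hρ hσ
      have hyA := not_mem_A E hy hfix
      obtain ⟨i, hi⟩ := (R.cov _ hyF).resolve_left hyA
      obtain ⟨j, hj⟩ : ∃ j : Fin 3, j ≠ i := by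
        have : ∀ i : Fin 3, ∃ j : Fin 3, j ≠ i := by decide
        exact this i
      have hjy : (n j)⁻¹ * (y : V ≃ₗ[ZMod p] V) ∉ A := by
        intro h
        apply hj
        apply R.inj
        have h3 : (n j)⁻¹ * n i = ((n j)⁻¹ * (y : V ≃ₗ[ZMod p] V)) * ((n i)⁻¹ * (y : V ≃ₗ[ZMod p] V))⁻¹ := by group
        rw [h3]
        exact mul_mem h (inv_mem hi)
      have h1 := anti E (R.memF j) hyF (R.notA j) hyA hjy
      refine card_sq_le (g := n j) fun v hv hv2 => ng_fix hp ?_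
      have h2 : n j * (y : V ≃ₗ[ZMod p] V) * (n j)⁻¹ = ng p V * y := by rw [h1]; group
      rw [h2, LinearEquiv.mul_apply, hv] at hv2
      exact hv2
    · -- `y` acts as a transposition
      obtain ⟨i, hi⟩ : ∃ i, ρ y i ≠ i := by
        by_contra hcon
        push Not at hcon
        exact hρ (Equiv.ext hcon)
      obtain ⟨j, hj⟩ : ∃ j, ρ y i = j := ⟨_, rfl⟩
      rw [hj] at hi
      have hact := (R.act y i j).1 hj
      obtain ⟨m, hm⟩ : ∃ m, m = (y : V ≃ₗ[ZMod p] V) * n i * (y : V ≃ₗ[ZMod p] V)⁻¹ := ⟨_, rfl⟩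
      rw [← hm] at hact
      have hmF : m ∈ F := by rw [hm]; exact E.nF _ y.2 _ (R.memF i)
      have hmA : m ∉ A := by
        intro h
        apply R.notA j
        have h3 : n j = m * ((n j)⁻¹ * m)⁻¹ := by group
        rw [h3]
        exact mul_mem h (inv_mem hact)
      have hmn : m⁻¹ * n i ∉ A := by
        intro h
        apply hi
        apply R.inj
        have h3 : (n j)⁻¹ * n i = ((n j)⁻¹ * m) * (m⁻¹ * n i) := by group
        rw [h3]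
        exact mul_mem hact h
      have hanti := anti E hmF (R.memF i) hmA (R.notA i) hmn
      have hcenA : ∀ a ∈ A, (y : V ≃ₗ[ZMod p] V) * a = a * y := (hK.cen y).1 hσ
      have hmm : m * m = n i * n i := by
        rw [hm]
        have h1 := hcenA _ (E.sq _ (R.memF i))
        calc (y : V ≃ₗ[ZMod p] V) * n i * (y : V ≃ₗ[ZMod p] V)⁻¹ * (y * n i * (y : V ≃ₗ[ZMod p] V)⁻¹) =
            (y * (n i * n i)) * (y : V ≃ₗ[ZMod p] V)⁻¹ := by group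
          _ = n i * n i := by rw [h1]; group
      -- `u = m (n i)⁻¹`, `u² = -1`
      have hu : (m * (n i)⁻¹) * (m * (n i)⁻¹) = ng p V := by
        have h1 : (n i)⁻¹ * m = ng p V * (m * (n i)⁻¹) := by
          have h2 : n i * m = ng p V * (m * n i) := by
            rw [hanti, ← mul_assoc, ng_mul_ng, one_mul]
          have h3 : m * (n i)⁻¹ = (n i)⁻¹ * (n i * m) * (n i)⁻¹ := by group
          rw [h3, h2]
          have h4 : (n i)⁻¹ * (ng p V * (m * n i)) * (n i)⁻¹ = ng p V * ((n i)⁻¹ * m) := by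
            rw [← mul_assoc, ← ng_comm]; group
          rw [h4, ← mul_assoc, ng_mul_ng, one_mul]
        calc (m * (n i)⁻¹) * (m * (n i)⁻¹) = m * ((n i)⁻¹ * m) * (n i)⁻¹ := by group
          _ = m * (ng p V * (m * (n i)⁻¹)) * (n i)⁻¹ := by rw [h1]
          _ = (m * ng p V) * (m * (n i)⁻¹) * (n i)⁻¹ := by group
          _ = (ng p V * m) * (m * (n i)⁻¹) * (n i)⁻¹ := by rw [ng_comm]
          _ = ng p V * (m * m) * ((n i)⁻¹ * (n i)⁻¹) := by group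
          _ = ng p V * (n i * n i) * ((n i)⁻¹ * (n i)⁻¹) := by rw [hmm]
          _ = ng p V := by group
      refine card_sq_le (g := n i) fun v hv hv2 => ng_fix hp ?_
      have hinv : (y : V ≃ₗ[ZMod p] V)⁻¹ = y := inv_eq_of_mul_eq_one_left hy2'
      have huv : (m * (n i)⁻¹) v = v := by
        have h1 : m * (n i)⁻¹ = y * (n i * (y : V ≃ₗ[ZMod p] V) * (n i)⁻¹) := by
          rw [hm, hinv]; group
        rw [h1, LinearEquiv.mul_apply, hv2, hv]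
      rw [← hu, LinearEquiv.mul_apply, huv, huv]
  · -- semilinear
    have h1 := Cfsg.Agent.H528.HT.card_fix_semi (K := K) (W := V) (σ y) hσ Nat.prime_two
      ((y : V ≃ₗ[ZMod p] V) : V ≃+ V) (fun k w => hK.semi y k w) (fun w => by
        show (y : V ≃ₗ[ZMod p] V) ((y : V ≃ₗ[ZMod p] V) w) = w
        rw [← LinearEquiv.mul_apply, hy2']
        rfl)
    refine le_trans (le_of_eq ?_) h1
    congr 1
    exact Nat.card_congr (Equiv.subtypeEquivRight fun w => mem_fx)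

end Cfsg.Agent.H755.HT
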